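import Cfsg.Agent.MonsterSeven97.Lift
import Cfsg.Agent.MonsterCent13.Main
import Cfsg.Agent.Co0Seven97.Classes

/-! The fixed part of `Q` has order `2 ^ 7` and 29 conjugates of `z`. -/

set_option autoImplicit false

namespace CfsgLib.MonsterSeven97

open Cfsg CfsgLib.Leech CfsgLib.Co0Seven CfsgLib.MonsterCent13

variable {G : Type*} [Group G] [Finite G] {z : G}
variable {Q : Subgroup (Subgroup.centralizer ({z} : Set G))} [Q.Normal]
variable {e : (Subgroup.centralizer ({z} : Set G)) ⧸ Q ≃* Spor.Co1}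
variable {ψ : leechLattice → Q ⧸ Subgroup.center Q}
variable (hc : Ctx z Q e ψ) {b : Subgroup.centralizer ({z} : Set G)}

include hc in
theorem fixQ_class (hm : Match e b sigma) (q : fixQ Q b) :
    ∃ v, ψ v = QuotientGroup.mk (q : Q) ∧ Fixed v := by
  obtain ⟨v, hv⟩ := hc.exists_class (q : Q)
  refine ⟨v, hv, (psi_eq_iff hc.iso _ _).1 ?_⟩
  rw [hc.conj_class hm hv, hv]
  refine congrArg QuotientGroup.mk (Subtype.ext ?_)
  show b * _ * b⁻¹ = _
  rw [(mem_bCent.1 (Subgroup.mem_subgroupOf.1 q.2)).eq, mul_inv_cancel_right]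

include hc in
/-- Fixed elements of `Q` correspond to a coordinate vector and a sign. -/
theorem exists_param (hb : b ^ 7 = 1) (hm : Match e b sigma) :
    ∃ F : (Fin 6 → ZMod 2) × ZMod 2 → fixQ Q b, Function.Bijective F ∧
      (∀ p, ψ (comb p.1) = QuotientGroup.mk (F p : Q)) ∧
      ∀ a, ((F (0, a) : fixQ Q b) : Q) = if a = 0 then 1 else hc.zq := by
  classical
  haveI : Fact (Nat.Prime 7) := ⟨by norm_num⟩
  choose q hq hqc using fun x : Fin 6 → ZMod 2 =>
    exists_lift_commute hc (p := 7) (by norm_num) hb hm (fixed_comb x)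
  have hzq : Commute b (hc.zq : Subgroup.centralizer ({z} : Set G)) := zElt_central b
  let l : (Fin 6 → ZMod 2) → Q := fun x => if x = 0 then 1 else q x
  have hl : ∀ x, ψ (comb x) = QuotientGroup.mk (l x) ∧
      Commute b (l x : Subgroup.centralizer ({z} : Set G)) := by
    intro x
    by_cases hx : x = 0
    · subst hx
      simp only [l, if_pos]
      exact ⟨by rw [comb_zero, psi_zero hc.iso]; rfl, Commute.one_right b⟩
    · simp only [l, if_neg hx]
      exact ⟨hq x, hqc x⟩
  let sg : ZMod 2 → Q := fun a => if a = 0 then 1 else hc.zq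
  have hsg : ∀ a, sg a ∈ Subgroup.center Q ∧
      Commute b (sg a : Subgroup.centralizer ({z} : Set G)) := by
    intro a
    simp only [sg]
    split_ifs
    · exact ⟨one_mem _, Commute.one_right b⟩
    · exact ⟨hc.mem_center.2 (Or.inr rfl), hzq⟩
  have hF : ∀ x a, l x * sg a ∈ fixQ Q b := fun x a =>
    Subgroup.mem_subgroupOf.2 (mem_bCent.2 ((hl x).2.mul_right (hsg a).2))
  have hcls : ∀ x a, ψ (comb x) = QuotientGroup.mk (l x * sg a) := fun x a => by
    rw [(hl x).1]
    exact QuotientGroup.eq.2 (by rw [inv_mul_cancel_left]; exact (hsg a).1)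
  refine ⟨fun p => ⟨_, hF p.1 p.2⟩, ⟨?_, ?_⟩, fun p => hcls p.1 p.2, fun a => ?_⟩
  · rintro ⟨x, a⟩ ⟨y, a'⟩ h
    have h' : l x * sg a = l y * sg a' := congrArg Subtype.val h
    have hxy : x = y := by
      rw [← chi_comb x, ← chi_comb y]
      refine chi_cg ((psi_eq_iff hc.iso _ _).1 ?_)
      rw [hcls x a, hcls y a', h']
    subst hxy
    have h2 : sg a = sg a' := mul_left_cancel h'
    rcases (show ∀ a : ZMod 2, a = 0 ∨ a = 1 by decide) a with rfl | rfl <;>
      rcases (show ∀ a : ZMod 2, a = 0 ∨ a = 1 by decide) a' with rfl | rfl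
    · rfl
    · exact absurd (by simpa [sg] using h2.symm) hc.zq_ne_one
    · exact absurd (by simpa [sg] using h2) hc.zq_ne_one
    · rfl
  · intro r
    obtain ⟨v, hv, hf⟩ := fixQ_class hc hm r
    have h1 : (QuotientGroup.mk (l (chi v)) : Q ⧸ Subgroup.center Q) = QuotientGroup.mk (r : Q) := by
      rw [← (hl _).1, ← hv]
      exact (psi_eq_iff hc.iso _ _).2 (fixed_eq hf).symm
    rcases hc.mem_center.1 (QuotientGroup.eq.1 h1) with e0 | e0
    · refine ⟨(chi v, 0), Subtype.ext ?_⟩
      show l (chi v) * sg 0 = _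
      rw [show sg 0 = 1 from if_pos rfl, mul_one]
      exact inv_mul_eq_one.1 e0
    · refine ⟨(chi v, 1), Subtype.ext ?_⟩
      show l (chi v) * sg 1 = _
      rw [show sg 1 = hc.zq from if_neg one_ne_zero, ← e0, mul_inv_cancel_left]
  · show l 0 * sg a = _
    rw [show l 0 = 1 from if_pos rfl, one_mul]

include hc in
theorem card_fixQ_seven (hb : b ^ 7 = 1) (hm : Match e b sigma) :
    Nat.card (fixQ Q b) = 2 ^ 7 := by
  obtain ⟨F, hF, -, -⟩ := exists_param hc hb hm
  rw [← Nat.card_congr (Equiv.ofBijective F hF), Nat.card_prod, Nat.card_fun, Nat.card_fin,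
    Nat.card_zmod]
  norm_num

include hc in
theorem card_conj_seven (hb : b ^ 7 = 1) (hm : Match e b sigma) :
    Nat.card {q : fixQ Q b // IsConj z (((q : Q) : Subgroup.centralizer ({z} : Set G)) : G)} = 29 := by
  classical
  obtain ⟨F, hF, hcls, h0⟩ := exists_param hc hb hm
  have key : ∀ p : (Fin 6 → ZMod 2) × ZMod 2,
      IsConj z (((F p : Q) : Subgroup.centralizer ({z} : Set G)) : G) ↔
        (IsFrameX p.1 ∨ p = (0, 1)) := by
    rintro ⟨x, a⟩
    by_cases hx : x = 0
    · subst hx
      rw [h0]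
      have hno : ¬ IsFrameX (0 : Fin 6 → ZMod 2) := fun h => h.1 rfl
      rcases (show ∀ a : ZMod 2, a = 0 ∨ a = 1 by decide) a with rfl | rfl
      · refine iff_of_false (fun h => ?_) (by simp [hno])
        rw [if_pos rfl] at h
        have hz : z = 1 := by
          obtain ⟨c, hc'⟩ := isConj_iff.1 h.symm
          simpa using hc'.symm
        have := hc.setting.1
        rw [hz, orderOf_one] at this
        omega
      · refine iff_of_true ?_ (Or.inr rfl)
        rw [if_neg one_ne_zero]
        exact IsConj.refl z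
    · have hne : ((F (x, a) : Q) : Subgroup.centralizer ({z} : Set G)).1 ≠ z := by
        intro h
        have hq : (F (x, a) : Q) = hc.zq := Subtype.ext (Subtype.ext h)
        refine hx ?_
        have h1 := hcls (x, a)
        rw [hq] at h1
        rw [← chi_comb x, chi_cg ((hc.class_zero h1).2 (Or.inr rfl)), map_zero]
      have h1 := hc.conj_iff_frame (hcls (x, a))
      simp only [Prod.mk.injEq, hx, false_and, or_false]
      rw [← rel_comb_iff]
      exact ⟨fun h => h1.1 ⟨h, hne⟩, fun h => (h1.2 h).1⟩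
  rw [← Nat.card_congr ((Equiv.ofBijective F hF).subtypeEquiv fun p => (key p).symm),
    Nat.card_eq_fintype_card]
  decide +kernel

end CfsgLib.MonsterSeven97
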