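import Cfsg.Agent.Co0Seven97.Centralizer
import Cfsg.Agent.MonsterCent13.Main
import Cfsg.Agent.Classical.Linear.Simple
import Cfsg.Agent.SmallIso.PSLThreeTwo

/-! The lattice-side inputs for the centraliser of the element of order 7. -/

set_option autoImplicit false

namespace CfsgLib.MonsterSeven97

open Cfsg CfsgLib.Leech CfsgLib.Co0Seven CfsgLib.MonsterCent13

theorem simple_sl_three_two :
    IsSimpleGroup (Matrix.SpecialLinearGroup (Fin 3) (ZMod 2)) := by
  haveI : Fact (Nat.Prime 2) := ⟨Nat.prime_two⟩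
  have h2 : ∀ r : ZMod 2, r ^ 3 = 1 → r = 1 := by decide +revert
  have hc : Subgroup.center (Matrix.SpecialLinearGroup (Fin 3) (ZMod 2)) = ⊥ := by
    rw [Subgroup.eq_bot_iff_forall]
    intro x hx
    obtain ⟨r, hr, hrx⟩ := Matrix.SpecialLinearGroup.mem_center_iff.mp hx
    apply Subtype.ext
    rw [← hrx, h2 r (by simpa using hr)]
    simp
  haveI : IsSimpleGroup (Matrix.ProjectiveSpecialLinearGroup (Fin 3) (ZMod 2)) :=
    CfsgLib.Classical.Linear.isSimpleGroup_psl_fin (by norm_num) (by norm_num)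
  exact MulEquiv.isSimpleGroup (H := Matrix.ProjectiveSpecialLinearGroup (Fin 3) (ZMod 2))
    (QuotientGroup.quotientBot.symm.trans (QuotientGroup.quotientMulEquivOfEq hc.symm))

/-- The action on the first family, on the centraliser. -/
noncomputable def rhoCent : Subgroup.centralizer ({sigma} : Set Co0) →*
    Matrix.SpecialLinearGroup (Fin 3) (ZMod 2) := rho

theorem rho_ker_eq : rhoCent.ker = base sigma := by
  ext c
  show rho c = 1 ↔ (c : Co0) ∈ Subgroup.center Co0 ⊔ Subgroup.zpowers sigma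
  rw [sup_comm]
  refine ⟨fun h => ?_, rho_ker⟩
  obtain ⟨n, e | e⟩ := rho_eq_one h <;> rw [e]
  · exact Subgroup.mem_sup_left (pow_mem (Subgroup.mem_zpowers sigma) n)
  · exact mul_mem (Subgroup.mem_sup_right negOne_central)
      (Subgroup.mem_sup_left (pow_mem (Subgroup.mem_zpowers sigma) n))

/-- The quotient of the centraliser is `SL(3, 2)`. -/
noncomputable def quotEquiv : Subgroup.centralizer ({sigma} : Set Co0) ⧸ base sigma ≃*
    Matrix.SpecialLinearGroup (Fin 3) (ZMod 2) :=
  (QuotientGroup.quotientMulEquivOfEq rho_ker_eq.symm).trans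
    (QuotientGroup.quotientKerEquivOfSurjective rhoCent rho_surjective)

theorem faithful : ∀ k ∈ Subgroup.centralizer ({sigma} : Set Co0),
    (∀ v : leechLattice, Cg (sigma • v) v → Cg (k • v) v) →
      k ∈ Subgroup.center Co0 ⊔ Subgroup.zpowers sigma := by
  intro k hk h
  have h1 : (⟨k, hk⟩ : Subgroup.centralizer ({sigma} : Set Co0)) ∈ rhoCent.ker := rho_eq_one_of_trivial h
  rw [rho_ker_eq] at h1
  exact h1

theorem no_core : ∀ T : Subgroup (Subgroup.centralizer ({sigma} : Set Co0) ⧸ base sigma),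
    T.Normal → IsPGroup 2 T → T = ⊥ := by
  intro T hn h2
  haveI := simple_sl_three_two
  haveI : IsSimpleGroup (Subgroup.centralizer ({sigma} : Set Co0) ⧸ base sigma) :=
    MulEquiv.isSimpleGroup quotEquiv
  refine (hn.eq_bot_or_eq_top).resolve_right fun ht => ?_
  haveI : Fact (Nat.Prime 2) := ⟨Nat.prime_two⟩
  haveI : Finite Co0 := finite_co0
  obtain ⟨n, hn2⟩ := IsPGroup.iff_card.1 (h2.of_equiv ((MulEquiv.subgroupCongr ht).trans
    (Subgroup.topEquiv.trans quotEquiv)))
  rw [SmallIso.card_sl_three_two] at hn2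
  have h3 : (3 : ℕ) ∣ 2 ^ n := ⟨56, by omega⟩
  have := Nat.Prime.dvd_of_dvd_pow Nat.prime_three h3
  norm_num at this

end CfsgLib.MonsterSeven97
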