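import Cfsg.Agent.MonsterSeven97.Twist
import Cfsg.Agent.MonsterCent13.Generic
import Cfsg.Agent.Co0Seven97.Elements

/-! A Sylow 7-subgroup of `C(z, s)` is generated by a lift of the standard element of order 7. -/

set_option autoImplicit false

namespace CfsgLib.MonsterSeven97

open Cfsg CfsgLib.Leech CfsgLib.Co0Seven

variable {G : Type*} [Group G] [Finite G] {z : G}
variable {Q : Subgroup (Subgroup.centralizer ({z} : Set G))} [Q.Normal]
variable {e : (Subgroup.centralizer ({z} : Set G)) ⧸ Q ≃* Spor.Co1}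
variable {ψ : leechLattice → Q ⧸ Subgroup.center Q}

theorem Match.pow {h : Subgroup.centralizer ({z} : Set G)} {g : Co0} (hm : Match e h g) :
    ∀ n : ℕ, Match e (h ^ n) (g ^ n) := by
  intro n
  induction n with
  | zero => simp [Match]
  | succ n ih => rw [pow_succ, pow_succ]; exact ih.mul hm

theorem sigma_not_center : sigma ∉ Subgroup.center Co0 := by
  intro h
  rcases center_co0_cases h with r | r
  · have := orderOf_sigma; rw [r, orderOf_one] at this; omega
  · have h2 : negOne ^ 2 = (1 : Co0) := by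
      refine co0_ext fun i => ?_
      rw [pow_two, mul_smul, one_smul, negOne_smul, negOne_smul, neg_neg]
    have h7 := sigma_pow_seven
    have he : negOne = (1 : Co0) := by
      rw [r] at h7
      calc negOne = negOne ^ 7 := by
            rw [show (7 : ℕ) = 2 * 3 + 1 from rfl, pow_succ, pow_mul, h2, one_pow, one_mul]
        _ = 1 := h7
    have := orderOf_sigma
    rw [r, he, orderOf_one] at this
    omega

theorem factorization_frameStab : (Nat.card frameStab).factorization 7 = 1 := by
  rw [card_frameStab]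
  have h7 : Nat.Prime 7 := by norm_num
  have h1 : 1 ≤ (4096 * 244823040 : ℕ).factorization 7 :=
    (h7.pow_dvd_iff_le_factorization (by norm_num)).1 (by norm_num)
  have h2 : ¬ 2 ≤ (4096 * 244823040 : ℕ).factorization 7 := fun h =>
    absurd ((h7.pow_dvd_iff_le_factorization (by norm_num)).2 h) (by norm_num)
  omega

theorem q_pow (hc : Ctx z Q e ψ) {h : Subgroup.centralizer ({z} : Set G)} (hh : h ∈ Q) {k : ℕ}
    (hk : 25 ≤ k) : h ^ 2 ^ k = 1 := by
  have h1 := pow_card_eq_one' (x := (⟨h, hh⟩ : Q))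
  rw [hc.setting.2.2.2.1] at h1
  obtain ⟨d, rfl⟩ := Nat.exists_eq_add_of_le hk
  rw [pow_add, pow_mul, show h ^ 2 ^ 25 = 1 from congrArg Subtype.val h1, one_pow]

theorem match_one {h : Subgroup.centralizer ({z} : Set G)} {g : Co0} (hm : Match e h g)
    (hg : g ∈ Subgroup.center Co0) : h ∈ Q := by
  rw [Match, (QuotientGroup.eq_one_iff g).2 hg, eq_comm, map_eq_one_iff e e.injective,
    QuotientGroup.eq_one_iff] at hm
  exact hm

variable (hc : Ctx z Q e ψ) {sq : Q}
include hc

theorem match_mem_frameStab (hsq : ψ (axisVec none) = QuotientGroup.mk sq)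
    {k : Subgroup.centralizer ({z} : Set G)} {g : Co0} (hm : Match e k g)
    (hk : Commute k (sq : Subgroup.centralizer ({z} : Set G))) : g ∈ frameStab := by
  rw [mem_frameStab]
  refine (psi_eq_iff hc.iso _ _).1 ?_
  rw [hc.conj_class hm hsq, hsq]
  refine congrArg QuotientGroup.mk (Subtype.ext ?_)
  show k * _ * k⁻¹ = _
  rw [hk.eq, mul_inv_cancel_right]

theorem exists_lift_sigma (hsq : ψ (axisVec none) = QuotientGroup.mk sq) :
    ∃ b : Subgroup.centralizer ({z} : Set G), b ^ 7 = 1 ∧ b ≠ 1 ∧ Match e b sigma ∧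
      Commute b (sq : Subgroup.centralizer ({z} : Set G)) := by
  obtain ⟨h, hh⟩ := exists_match_left (e := e) sigma
  have hb7 : (h ^ 2 ^ 27) ^ 7 = 1 := by
    rw [← pow_mul, mul_comm, pow_mul]
    refine q_pow hc (match_one (Match.pow hh 7) ?_) (by norm_num)
    rw [sigma_pow_seven]
    exact one_mem _
  have hm : Match e (h ^ 2 ^ 27) sigma := by
    have h1 := Match.pow hh (2 ^ 27)
    rwa [← pow_mod_orderOf sigma (2 ^ 27), orderOf_sigma,
      show 2 ^ 27 % 7 = 1 by norm_num, pow_one] at h1
  set b := h ^ 2 ^ 27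
  have hb1 : b ≠ 1 := by
    intro hb
    rw [hb, Match, QuotientGroup.mk_one, map_one] at hm
    exact sigma_not_center ((QuotientGroup.eq_one_iff _).1 hm)
  refine ⟨b, hb7, hb1, hm, ?_⟩
  have hcls : ψ (sigma • axisVec none) = ψ (axisVec none) :=
    (psi_eq_iff hc.iso _ _).2 sigma_mem_frameStab
  have h1 := hc.conj_class hm hsq
  rw [hcls, hsq] at h1
  have hmem := hc.mem_center.1 (QuotientGroup.eq.1 h1)
  have hzc : Commute b (hc.zq : Subgroup.centralizer ({z} : Set G)) := zElt_central b
  have hz2 : (hc.zq : Subgroup.centralizer ({z} : Set G)) * (hc.zq : Subgroup.centralizer ({z} : Set G)) = 1 :=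
    Subtype.ext (show z * z = 1 by rw [← pow_two, ← hc.setting.1, pow_orderOf_eq_one])
  rcases hmem with r | r
  · have r' : (sq : Subgroup.centralizer ({z} : Set G))⁻¹ * (b * sq * b⁻¹) = 1 :=
      congrArg Subtype.val r
    rw [inv_mul_eq_one, eq_mul_inv_iff_mul_eq] at r'
    exact r'.symm
  · have r' : b * sq * b⁻¹ = (sq : Subgroup.centralizer ({z} : Set G)) * hc.zq := by
      have r2 : (sq : Subgroup.centralizer ({z} : Set G))⁻¹ * (b * sq * b⁻¹) = hc.zq :=
        congrArg Subtype.val r
      rwa [inv_mul_eq_iff_eq_mul] at r2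
    have h2 : Commute (b ^ 2) (sq : Subgroup.centralizer ({z} : Set G)) := by
      have e2 : b ^ 2 * sq * (b ^ 2)⁻¹ = (sq : Subgroup.centralizer ({z} : Set G)) := by
        calc b ^ 2 * sq * (b ^ 2)⁻¹ = b * (b * sq * b⁻¹) * b⁻¹ := by rw [pow_two]; group
          _ = b * ((sq : Subgroup.centralizer ({z} : Set G)) * hc.zq) * b⁻¹ := by rw [r']
          _ = (b * sq * b⁻¹) * (b * hc.zq * b⁻¹) := by group
          _ = sq := by rw [r', hzc.eq, mul_inv_cancel_right, mul_assoc, hz2, mul_one]
      exact mul_inv_eq_iff_eq_mul.1 e2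
    have h8 := h2.pow_left 4
    rwa [← pow_mul, show 2 * 4 = 7 + 1 from rfl, pow_succ, hb7, one_mul] at h8

/-- The 7-part of the order of `C(z, s)`. -/
theorem factorization_centralizer (hsq : ψ (axisVec none) = QuotientGroup.mk sq) :
    (Nat.card (Subgroup.centralizer
      ({z, ((sq : Subgroup.centralizer ({z} : Set G)) : G)} : Set G))).factorization 7 = 1 := by
  set L := Subgroup.centralizer ({(sq : Subgroup.centralizer ({z} : Set G))} :
    Set (Subgroup.centralizer ({z} : Set G))) with hL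
  have hmap : L.map (Subgroup.centralizer ({z} : Set G)).subtype =
      Subgroup.centralizer ({z, ((sq : Subgroup.centralizer ({z} : Set G)) : G)} : Set G) := by
    ext x
    simp only [Subgroup.mem_centralizer_iff, Set.forall_mem_insert, Set.mem_singleton_iff,
      forall_eq]
    constructor
    · rintro ⟨k, hk, rfl⟩
      exact ⟨Subgroup.mem_centralizer_iff.1 k.2 z rfl, congrArg Subtype.val
        (Subgroup.mem_centralizer_iff.1 hk _ rfl)⟩
    · rintro ⟨h1, h2⟩
      exact ⟨⟨x, Subgroup.mem_centralizer_singleton_iff.2 h1.symm⟩,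
        Subgroup.mem_centralizer_singleton_iff.2 (Subtype.ext h2.symm), rfl⟩
  rw [← hmap, Subgroup.card_map_of_injective Subtype.val_injective]
  obtain ⟨b, hb7, hb1, -, hbs⟩ := exists_lift_sigma hc hsq
  haveI : Fact (Nat.Prime 7) := ⟨by norm_num⟩
  have h7 : 7 ∣ Nat.card L := by
    have h := orderOf_dvd_natCard (⟨b, Subgroup.mem_centralizer_singleton_iff.2 hbs.eq⟩ : L)
    rwa [orderOf_eq_prime (Subtype.ext hb7) (fun h' => hb1 (congrArg Subtype.val h'))] at h
  let f : L →* Spor.Co1 := (e.toMonoidHom.comp (QuotientGroup.mk' Q)).comp L.subtype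
  have hker : ¬ 7 ∣ Nat.card f.ker := by
    intro hd
    have hle : f.ker.map L.subtype ≤ Q := by
      rintro _ ⟨k, hk, rfl⟩
      exact (QuotientGroup.eq_one_iff _).1 ((map_eq_one_iff e e.injective).1 hk)
    have h1 := Subgroup.card_dvd_of_le hle
    rw [Subgroup.card_map_of_injective Subtype.val_injective, hc.setting.2.2.2.1] at h1
    have h2 := (Nat.prime_iff.1 (by norm_num : Nat.Prime 7)).dvd_of_dvd_pow (hd.trans h1)
    norm_num at h2
  have hrange : Nat.card f.range ∣ Nat.card frameStab := by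
    have hle : f.range ≤ frameStab.map (QuotientGroup.mk' (Subgroup.center Co0)) := by
      rintro _ ⟨k, rfl⟩
      obtain ⟨g, hg⟩ := exists_match_right (e := e) k.1
      exact ⟨g, match_mem_frameStab hc hsq hg (Subgroup.mem_centralizer_singleton_iff.1 k.2), hg⟩
    exact (Subgroup.card_dvd_of_le hle).trans (Subgroup.card_map_dvd _ _)
  haveI : Finite Co0 := finite_co0
  have e1 := Subgroup.card_mul_index f.ker
  rw [Subgroup.index_ker] at e1
  have hne : Nat.card f.ker ≠ 0 := Nat.card_pos.ne'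
  have hner : Nat.card f.range ≠ 0 := Nat.card_pos.ne'
  have h0 : (Nat.card f.ker).factorization 7 = 0 :=
    Nat.factorization_eq_zero_of_not_dvd hker
  have hr1 : (Nat.card f.range).factorization 7 ≤ 1 := by
    refine le_of_le_of_eq ?_ factorization_frameStab
    exact (Nat.factorization_le_iff_dvd hner Nat.card_pos.ne').2 hrange 7
  have hl1 : 1 ≤ (Nat.card L).factorization 7 :=
    ((by norm_num : Nat.Prime 7).dvd_iff_one_le_factorization Nat.card_pos.ne').1 h7
  have hsum : (Nat.card L).factorization 7 =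
      (Nat.card f.ker).factorization 7 + (Nat.card f.range).factorization 7 := by
    rw [← e1, Nat.factorization_mul hne hner, Finsupp.add_apply]
  omega

/-- A subgroup of order 7 commuting with `sq` is generated by a lift of a conjugate of `sigma`. -/
theorem exists_generator (hsq : ψ (axisVec none) = QuotientGroup.mk sq) (B : Subgroup G)
    (hB : B ≤ Subgroup.centralizer ({z, ((sq : Subgroup.centralizer ({z} : Set G)) : G)} : Set G))
    (hB7 : Nat.card B = 7) :
    ∃ (b : Subgroup.centralizer ({z} : Set G)) (f : Co0), f ∈ frameStab ∧ b ^ 7 = 1 ∧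
      Match e b (f⁻¹ * sigma * f) ∧ B = Subgroup.zpowers (b : G) ∧
      Commute b (sq : Subgroup.centralizer ({z} : Set G)) := by
  haveI : Fact (Nat.Prime 7) := ⟨by norm_num⟩
  haveI : Finite Co0 := finite_co0
  obtain ⟨x, hxB, hx1⟩ : ∃ x ∈ B, x ≠ (1 : G) := by
    by_contra hn
    push Not at hn
    rw [(Subgroup.eq_bot_iff_forall B).2 hn, Subgroup.card_bot] at hB7
    omega
  have hx7 : x ^ 7 = 1 := by
    have := pow_card_eq_one' (x := (⟨x, hxB⟩ : B))
    rw [hB7] at this
    exact congrArg Subtype.val this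
  have hxL := hB hxB
  simp only [Subgroup.mem_centralizer_iff, Set.forall_mem_insert, Set.mem_singleton_iff,
    forall_eq] at hxL
  set bx : Subgroup.centralizer ({z} : Set G) :=
    ⟨x, Subgroup.mem_centralizer_singleton_iff.2 hxL.1.symm⟩ with hbx
  have hbs : Commute bx (sq : Subgroup.centralizer ({z} : Set G)) := Subtype.ext hxL.2.symm
  have hbx7 : bx ^ 7 = 1 := Subtype.ext hx7
  have hbxQ : bx ∉ Q := by
    intro h
    have h1 := q_pow hc h (le_refl 25)
    have hd : orderOf bx ∣ Nat.gcd 7 (2 ^ 25) :=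
      Nat.dvd_gcd (orderOf_dvd_of_pow_eq_one hbx7) (orderOf_dvd_of_pow_eq_one h1)
    rw [show Nat.gcd 7 (2 ^ 25) = 1 by norm_num, Nat.dvd_one, orderOf_eq_one_iff] at hd
    exact hx1 (congrArg Subtype.val hd)
  obtain ⟨g, hg⟩ := exists_match_right (e := e) bx
  have hg7 : g ^ 7 ∈ Subgroup.center Co0 := by
    have h1 := Match.pow hg 7
    rw [hbx7, Match, QuotientGroup.mk_one, map_one] at h1
    exact (QuotientGroup.eq_one_iff _).1 h1
  have hg8 : Match e bx (g ^ 8) := by
    have h1 := Match.pow hg 8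
    rwa [pow_succ bx 7, hbx7, one_mul] at h1
  set γ := g ^ 8 with hγ
  have hγ7 : γ ^ 7 = 1 := by
    rw [hγ, ← pow_mul, mul_comm, pow_mul]
    rcases center_co0_cases hg7 with r | r <;> rw [r]
    · exact one_pow _
    · have h2 : negOne ^ 2 = (1 : Co0) := by
        refine co0_ext fun i => ?_
        rw [pow_two, mul_smul, one_smul, negOne_smul, negOne_smul, neg_neg]
      rw [show (8 : ℕ) = 2 * 4 from rfl, pow_mul, h2, one_pow]
  have hγf : γ ∈ frameStab := match_mem_frameStab hc hsq hg8 hbs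
  have hγ1 : γ ≠ 1 := fun h => hbxQ (match_one hg8 (h ▸ one_mem _))
  let γ0 : frameStab := ⟨γ, hγf⟩
  let σ0 : frameStab := ⟨sigma, sigma_mem_frameStab⟩
  have ho : ∀ w : frameStab, w ^ 7 = 1 → w ≠ 1 →
      Nat.card (Subgroup.zpowers w) = 7 ^ (Nat.card frameStab).factorization 7 := fun w h1 h2 => by
    rw [Nat.card_zpowers, orderOf_eq_prime h1 h2, factorization_frameStab, pow_one]
  let P := Sylow.ofCard _ (ho γ0 (Subtype.ext hγ7) fun h => hγ1 (congrArg Subtype.val h))
  let P0 := Sylow.ofCard _ (ho σ0 (Subtype.ext sigma_pow_seven) fun h => by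
    have h1 : sigma = 1 := congrArg Subtype.val h
    have := orderOf_sigma
    rw [h1, orderOf_one] at this
    omega)
  obtain ⟨f, hf⟩ := MulAction.exists_smul_eq frameStab P P0
  have hmem : f * γ0 * f⁻¹ ∈ Subgroup.zpowers σ0 := by
    have h1 : f * γ0 * f⁻¹ ∈ ((f • P : Sylow 7 frameStab) : Subgroup frameStab) := by
      rw [Sylow.coe_subgroup_smul]
      exact ⟨γ0, Subgroup.mem_zpowers γ0, rfl⟩
    rw [hf] at h1
    exact h1
  have hgen : σ0 ∈ Subgroup.zpowers (f * γ0 * f⁻¹) := by
    rw [Subgroup.eq_of_le_of_card_ge (Subgroup.zpowers_le.2 hmem) ?_]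
    · exact Subgroup.mem_zpowers _
    · refine le_of_eq ?_
      rw [ho σ0 (Subtype.ext sigma_pow_seven) fun h => ?_, ho (f * γ0 * f⁻¹) ?_ ?_]
      · rw [conj_pow, show γ0 ^ 7 = 1 from Subtype.ext hγ7]; group
      · intro h
        rw [conj_eq_one_iff] at h
        exact hγ1 (congrArg Subtype.val h)
      · have h1 : sigma = 1 := congrArg Subtype.val h
        have := orderOf_sigma
        rw [h1, orderOf_one] at this
        omega
  obtain ⟨i, hi⟩ := mem_powers_iff_mem_zpowers.2 hgen
  have hi' : (f : Co0) * γ ^ i * (f : Co0)⁻¹ = sigma := by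
    rw [← conj_pow]; exact congrArg Subtype.val hi
  refine ⟨bx ^ i, f, f.2, ?_, ?_, ?_, hbs.pow_left i⟩
  · rw [← pow_mul, mul_comm, pow_mul, hbx7, one_pow]
  · rw [← hi']
    have := Match.pow hg8 i
    simpa [mul_assoc] using this
  · have hne : x ^ i ≠ 1 := by
      intro h
      have h2 : bx ^ i = 1 := Subtype.ext h
      have h1 := Match.pow hg8 i
      rw [h2, Match, QuotientGroup.mk_one, map_one] at h1
      have h3 : γ ^ i ∈ Subgroup.center Co0 := (QuotientGroup.eq_one_iff _).1 h1
      refine sigma_not_center (hi' ▸ ?_)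
      rw [Subgroup.mem_center_iff.1 h3 (f : Co0), mul_inv_cancel_right]
      exact h3
    refine (Subgroup.eq_of_le_of_card_ge (Subgroup.zpowers_le.2 (pow_mem hxB i)) ?_).symm
    rw [hB7]
    show 7 ≤ Nat.card (Subgroup.zpowers (x ^ i))
    rw [Nat.card_zpowers, orderOf_eq_prime
      (show (x ^ i) ^ 7 = 1 by rw [← pow_mul, mul_comm, pow_mul, hx7, one_pow]) hne]

end CfsgLib.MonsterSeven97
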