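import Cfsg.Agent.Leech.Monster.Orbits

/-! Changing the identifications of a Monster-type setting by an element of the lattice group. -/

set_option autoImplicit false

namespace CfsgLib.MonsterSeven97

open Cfsg CfsgLib.Leech

variable {G : Type*} [Group G] {z : G}
variable {Q : Subgroup (Subgroup.centralizer ({z} : Set G))} [Q.Normal]
variable {e : (Subgroup.centralizer ({z} : Set G)) ⧸ Q ≃* Spor.Co1}
variable {ψ : leechLattice → Q ⧸ Subgroup.center Q}

/-- The setting read through `t`. -/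
theorem ctx_twist (hc : Ctx z Q e ψ) (t : Co0) :
    ∃ (e' : (Subgroup.centralizer ({z} : Set G)) ⧸ Q ≃* Spor.Co1)
      (ψ' : leechLattice → Q ⧸ Subgroup.center Q), Ctx z Q e' ψ' ∧
        (∀ h g, Match e' h g ↔ Match e h (t * g * t⁻¹)) ∧ ∀ v, ψ' v = ψ (t • v) := by
  let e' := e.trans (MulAut.conj (QuotientGroup.mk t⁻¹ : Spor.Co1))
  have hm : ∀ h g, Match e' h g ↔ Match e h (t * g * t⁻¹) := by
    intro h g
    show QuotientGroup.mk g = MulAut.conj (QuotientGroup.mk t⁻¹ : Spor.Co1) (e (QuotientGroup.mk h)) ↔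
      QuotientGroup.mk (t * g * t⁻¹) = e (QuotientGroup.mk h)
    rw [MulAut.conj_apply, QuotientGroup.mk_mul, QuotientGroup.mk_mul, QuotientGroup.mk_inv,
      inv_inv]
    constructor
    · intro h1; rw [h1]; group
    · intro h1; rw [← h1]; group
  obtain ⟨h1, h2, h3, h4⟩ := hc.iso
  refine ⟨e', fun v => ψ (t • v), ⟨hc.setting, ?_, ?_, ?_, ?_⟩, hm, fun v => rfl⟩
  · intro v w
    show ψ (t • (v + w)) = _
    rw [co0_map_add, h1]
  · intro x
    obtain ⟨v, hv⟩ := h2 x
    exact ⟨t⁻¹ • v, by show ψ (t • t⁻¹ • v) = x; rw [smul_inv_smul, hv]⟩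
  · intro v
    show ψ (t • v) = 1 ↔ _
    rw [h3]
    constructor
    · rintro ⟨w, hw⟩
      exact ⟨t⁻¹ • w, by rw [← co0_map_add, ← hw, inv_smul_smul]⟩
    · rintro ⟨w, rfl⟩
      exact ⟨t • w, co0_map_add t w w⟩
  · intro h g hg v q hv
    have := h4 h (t * g * t⁻¹) ((hm h g).1 hg) (t • v) q hv
    rw [mul_smul, mul_smul, inv_smul_smul] at this
    exact this

end CfsgLib.MonsterSeven97
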